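import Cfsg.Agent.H5.HeW.Tab0

set_option autoImplicit false
set_option maxRecDepth 100000
set_option Elab.async false

namespace Cfsg.H6.HeW

theorem p0 : allR (ptU img) 0 704 = true := by decide +kernel

theorem p1 : allR (ptU img) 704 704 = true := by decide +kernel

theorem p2 : allR (ptU img) 1408 363 = true := by decide +kernel

theorem q0_0 : allR (ivl img Ws 1 91) 1 90 = true := by decide +kernel

theorem q1_0 : allR (ivl img Ws 91 331) 91 240 = true := by decide +kernel

theorem q2_0 : allR (ivl img Ws 331 1771) 331 1440 = true := by decide +kernel

end Cfsg.H6.HeW
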