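import Cfsg.Agent.H5.HeW.Rep
import Cfsg.Agent.H5.HeW.C1.Main
import Cfsg.Agent.H5.HeW.C2.Main
import Cfsg.Agent.H5.HeW.C3.Main

set_option autoImplicit false
set_option maxRecDepth 100000
set_option Elab.async false

namespace Cfsg.H6.HeW

theorem cover : Cover (gen ev Ws) ⊤ 1771 := hX ▸ C1.cover hev hR

theorem ub : UB (⊤ : Subgroup Grp) 244823040 :=
  ((UB.bot.cover (C3.cover hev hR)).cover (C2.cover hev hR)).cover cover

def I : List Ivl := [(1, 91, [7]), (91, 331, [7,6,8,7]), (331, 1771, [7,6,5,6,7])]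

theorem act : ∃ φ : Grp →* Equiv.Perm ℕ, IsAct φ ev img 1771 9 := by
  obtain ⟨ψ, hψ⟩ := lift rep.1 rep.2.1
  exact ⟨_, rep.2.2.comp ψ hψ⟩

/-- The permutation representation. -/
noncomputable def φ : Grp →* Equiv.Perm ℕ := act.choose

theorem hφ : IsAct φ ev img 1771 9 := act.choose_spec

theorem prim : Prim φ ev (gen ev Ws) 1771 I :=
  prim_sound hφ cover (List.forall_mem_cons.mpr ⟨iv0 hφ, (List.forall_mem_cons.mpr ⟨iv1 hφ, (List.forall_mem_cons.mpr ⟨iv2 hφ, (by simp)⟩)⟩)⟩) (by decide +kernel)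

theorem coatom : IsCoatom (gen ev Ws) :=
  prim.isCoatom hφ hX (C := [[], [0], [0,2,0,6], [0,4,0,6]]) (by decide +kernel)

def lW0 : List (List ℕ) := [[nat_lit 4], [nat_lit 3, nat_lit 4, nat_lit 3]]

theorem l0 : lvlChk img 1771 9 [1,0] (4, lW0, unp 3 (nat_lit 0xe000000040100000400)) = true := by
  decide +kernel

def lW1 : List (List ℕ) := [[nat_lit 1], [nat_lit 2], [nat_lit 5], [nat_lit 3, nat_lit 2, nat_lit 3]]

theorem l1 : lvlChk img 1771 9 [4,1,0] (3, lW1, unp 11 (nat_lit 0x160000000c0100000c000000050200000b01000003030000080000000f00000007020000030200000301)) = true := by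
  decide +kernel

def lW2 : List (List ℕ) := [[nat_lit 5, nat_lit 6, nat_lit 2, nat_lit 3, nat_lit 2, nat_lit 6, nat_lit 5]]

theorem l2 : lvlChk img 1771 9 [3,4,1,0] (9, lW2, unp 1 (nat_lit 0x900)) = true := by
  decide +kernel

def lW3 : List (List ℕ) := [[nat_lit 1], [nat_lit 2, nat_lit 1, nat_lit 2], [nat_lit 8, nat_lit 3, nat_lit 8, nat_lit 3]]

theorem l3 : lvlChk img 1771 9 [9,3,4,1,0] (8, lW3, unp 7 (nat_lit 0x290000000c0100000c000000080200001d000000080100000800)) = true := by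
  decide +kernel

def lW4 : List (List ℕ) := [[nat_lit 8, nat_lit 4, nat_lit 3, nat_lit 8, nat_lit 3, nat_lit 4, nat_lit 8, nat_lit 4]]

theorem l4 : lvlChk img 1771 9 [8,9,3,4,1,0] (19, lW4, unp 1 (nat_lit 0x1300)) = true := by
  decide +kernel

theorem finite : Finite Grp := ub.top.1

def bs : List ℕ := [19,8,9,3,4,1,0]

theorem lb : LBn φ ⊤ 1771 bs 244823040 := by
  have := finite
  exact LBn.cast ((((((prim.lb2 (e := I.head (by decide)) (List.head_mem _)).stepT hφ l0).stepT hφ l1).stepT hφ l2).stepT hφ l3).stepT hφ l4) (by decide +kernel)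

theorem main : Nat.card Grp = 244823040 ∧ fixS φ bs = ⊥ ∧ Oracle ev img 9 bs := by
  have := finite
  exact lb.oracle hφ ub.top.2

theorem normal (N : Subgroup Grp) [N.Normal] (hN : N ≠ ⊥) :
    ∀ t ∈ ([[1], [2], [3], [4], [5], [6], [7], [8]] : List (List ℕ)), evL ev t ∈ N := by
  have := finite
  exact prim.normal_contains hev coatom lb.2 main.2.1 main.2.2 (p := 23) (k := 1) (j := 1) (by norm_num)
    main.1 (x := [4,8,5,7,6]) (St := [([4,8,5,7,6], [], [3], 15, 2), ([3], [], [7], 3, 2), ([4,8,5,7,6], [], [1], 23, 2), ([1], [], [5], 3, 2), ([5], [], [6], 5, 2), ([6], [], [2], 3, 2), ([5], [6,7], [8], 5, 2), ([8], [], [4], 3, 2)]) (by decide +kernel) N hN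

theorem simple : IsSimpleGroup Grp := by
  have := prim.nontrivial
  exact isSimple_of_contains hX normal

end Cfsg.H6.HeW
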