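import Cfsg.Agent.H5.HeW.Pres
import Cfsg.Agent.H5.HeW.Chk0

set_option autoImplicit false
set_option maxRecDepth 100000
set_option Elab.async false

namespace Cfsg.H6.HeW

theorem ptOK : PtOK img 1771 LS EQS := ptOK_of_chk fun p h1 h2 => by
  rw [← ptU_eq]
  exact (range_join (allR_range p0 (by norm_num : 0 + 704 = 704)) (range_join (allR_range p1 (by norm_num : 704 + 704 = 1408)) (allR_range p2 (by norm_num : 1408 + 363 = 1771)))) p h1 h2

theorem hrep : repOK 9 148080050112590643456 LS EQS D HeW.R = true := by decide +kernel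

theorem rep : Good (evR img 1771 9) 148080050112590643456 ∧ Rels (evR img 1771 9) HeW.R ∧
    IsAct (MonoidHom.id _) (evR img 1771 9) img 1771 9 := rep_sound ptOK hrep

theorem iv0 {G : Type*} [Group G] {φ : G →* Equiv.Perm ℕ} {ev : ℕ → G} (h : IsAct φ ev img 1771 9) :
    orb φ (gen ev Ws) 1 = Set.Ico 1 91 :=
  ivl_sound h (by decide +kernel) (allR_range q0_0 (by norm_num : 1 + 90 = 91))

theorem iv1 {G : Type*} [Group G] {φ : G →* Equiv.Perm ℕ} {ev : ℕ → G} (h : IsAct φ ev img 1771 9) :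
    orb φ (gen ev Ws) 91 = Set.Ico 91 331 :=
  ivl_sound h (by decide +kernel) (allR_range q1_0 (by norm_num : 91 + 240 = 331))

theorem iv2 {G : Type*} [Group G] {φ : G →* Equiv.Perm ℕ} {ev : ℕ → G} (h : IsAct φ ev img 1771 9) :
    orb φ (gen ev Ws) 331 = Set.Ico 331 1771 :=
  ivl_sound h (by decide +kernel) (allR_range q2_0 (by norm_num : 331 + 1440 = 1771))


end Cfsg.H6.HeW
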